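import Cfsg.Agent.Lib.Mult.Glue
import Cfsg.Agent.Lib.Grp.A6.Main
import Cfsg.Agent.Lib.Mult.A6.P2
import Cfsg.Agent.Lib.Mult.A6.P3

set_option autoImplicit false
set_option maxRecDepth 100000
set_option Elab.async false

namespace Cfsg.Agent.Mult.A6

open Cfsg.Agent.CG Cfsg.Agent.CG.A6

theorem pb5 : PB PG 5 [] :=
  pb_cyc base card (a := 0) (d := 1) (v := [2]) (by norm_num) (by decide +kernel)

theorem mb : MB PG [2,3] :=
  PBs.mb (PBs.cons pb2 (PBs.cons pb3 (PBs.cons pb5 PBs.nil))) card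
    (primes_of_eq_prod (ps := [2,3,5]) (es := [3,2,1]) (by simp only [List.forall_mem_cons]; norm_num) (by decide +kernel))

end Cfsg.Agent.Mult.A6
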